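import Mathlib
import Cfsg.Agent.Lib.Helper95.OFX.Defs
import Cfsg.Agent.Lib.Helper76.OFX.DerP
import Cfsg.Agent.Lib.Helper40.Elusive
import Cfsg.Agent.Lib.Helper40.PrimeOrderGL
import Cfsg.Agent.Lib.Helper40.Fitting

/-!
# OFX package [DERODD] (helper73)

`r` odd, `r ≠ p`, `i = ord_r(q)` odd and `≤ d`: `x = diag(A', A'⁻ᵀ)` with `A' = 1 ⊕ A`,
`A ∈ GL_i(F)` of order `r` without eigenvalue `1`, is an element of `Ω⁺_{2d}(F)` with
`x ^ r = 1`, not scalar, and `rank (x - 1) = 2 i ≡ 2 (mod 4)`.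
-/

set_option autoImplicit false

namespace Cfsg.Agent.Lib.Helper73.OFX

open Matrix Polynomial Cfsg.Agent.Lib.Helper95.OFX

universe u

/-- The rank of a block-diagonal matrix is the sum of the ranks of the blocks. -/
theorem rank_fromBlocks_diag {F : Type*} [Field F] {m n : Type*} [Fintype m] [Fintype n]
    [DecidableEq m] [DecidableEq n] (M : Matrix m m F) (N : Matrix n n F) :
    (Matrix.fromBlocks M 0 0 N).rank = M.rank + N.rank := by
  let e := LinearEquiv.sumArrowLequivProdArrow m n F F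
  have key : LinearMap.range (Matrix.fromBlocks M 0 0 N).mulVecLin =
      ((LinearMap.range M.mulVecLin).prod (LinearMap.range N.mulVecLin)).map
        (e.symm : (m → F) × (n → F) →ₗ[F] (m ⊕ n → F)) := by
    ext w
    constructor
    · rintro ⟨v, rfl⟩
      refine ⟨(M *ᵥ (v ∘ Sum.inl), N *ᵥ (v ∘ Sum.inr)), ⟨⟨_, rfl⟩, ⟨_, rfl⟩⟩, ?_⟩
      show e.symm (M *ᵥ (v ∘ Sum.inl), N *ᵥ (v ∘ Sum.inr)) = Matrix.fromBlocks M 0 0 N *ᵥ v
      rw [Matrix.fromBlocks_mulVec]
      funext j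
      rcases j with j | j <;> simp [e, LinearEquiv.sumArrowLequivProdArrow]
    · rintro ⟨⟨a, b⟩, ⟨⟨a', ha⟩, ⟨b', hb⟩⟩, rfl⟩
      refine ⟨Sum.elim a' b', ?_⟩
      have ha2 : M *ᵥ a' = a := ha
      have hb2 : N *ᵥ b' = b := hb
      show Matrix.fromBlocks M 0 0 N *ᵥ Sum.elim a' b' = e.symm (a, b)
      rw [Matrix.fromBlocks_mulVec, ← ha2, ← hb2]
      funext j
      rcases j with j | j <;> simp [e, LinearEquiv.sumArrowLequivProdArrow]
  let g : ((LinearMap.range M.mulVecLin).prod (LinearMap.range N.mulVecLin)) ≃ₗ[F]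
      (LinearMap.range M.mulVecLin) × (LinearMap.range N.mulVecLin) :=
    { toFun := fun x => (⟨x.1.1, x.2.1⟩, ⟨x.1.2, x.2.2⟩)
      invFun := fun y => ⟨(y.1.1, y.2.1), ⟨y.1.2, y.2.2⟩⟩
      map_add' := fun _ _ => rfl
      map_smul' := fun _ _ => rfl
      left_inv := fun _ => rfl
      right_inv := fun _ => rfl }
  unfold Matrix.rank
  rw [key, LinearEquiv.finrank_map_eq, g.finrank_eq, Module.finrank_prod]

/-- Subtraction of block matrices. -/
theorem fromBlocks_sub' {F : Type*} [Field F] {m n : Type*} (A A' : Matrix m m F)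
    (B B' : Matrix m n F) (C C' : Matrix n m F) (D D' : Matrix n n F) :
    Matrix.fromBlocks A B C D - Matrix.fromBlocks A' B' C' D' =
      Matrix.fromBlocks (A - A') (B - B') (C - C') (D - D') := by
  ext (j | j) (k | k) <;> simp

/-- An element of order dividing `r` of `GL_i(F)`, `i = ord_r(q)`, without the eigenvalue `1`. -/
theorem exists_fpf_block {F : Type u} [Field F] [Fintype F] {p : ℕ} [Fact p.Prime] [CharP F p]
    (r : ℕ) (hr : r.Prime) (hrp : r ≠ p) (i : ℕ)
    (hi : i = orderOf ((Fintype.card F : ℕ) : ZMod r)) :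
    ∃ A : Matrix (Fin i) (Fin i) F, A ^ r = 1 ∧ IsUnit (A - 1) := by
  classical
  have : Fact r.Prime := ⟨hr⟩
  obtain ⟨S, hS, ⟨π₀, hπ₀⟩⟩ :=
    Cfsg.Agent.Lib.Helper40.Elusive.exists_factors (F := F) (p := p) rfl r hrp
  rw [← hi] at hS
  let a : S → ℕ := fun π => if π = ⟨π₀, hπ₀⟩ then 1 else 0
  have hsum : ∑ π, a π = 1 := by
    simp [a]
  have ha : i * ∑ π, a π ≤ i := by
    rw [hsum, mul_one]
  obtain ⟨g, hg, hχ⟩ := Cfsg.Agent.Lib.Helper40.PrimeOrderGL.exists_GL_chi p hS hr.pos a ha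
  refine ⟨(g : Matrix (Fin i) (Fin i) F), ?_, ?_⟩
  · rw [← Units.val_pow_eq_pow_val, hg]
    rfl
  · have hk : i - i * ∑ π, a π = 0 := by
      rw [hsum, mul_one, Nat.sub_self]
    rw [hk] at hχ
    have hev : ((g : Matrix (Fin i) (Fin i) F).charpoly).eval 1 ≠ 0 := by
      rw [hχ]
      unfold Cfsg.Agent.Lib.Helper40.PrimeOrderGL.chi
      rw [pow_zero, one_mul, Polynomial.eval_prod, Finset.prod_ne_zero_iff]
      intro π _
      rw [Polynomial.eval_pow]
      apply pow_ne_zero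
      intro h0
      have hroot : (X - C (1 : F)) ∣ π.1 := Polynomial.dvd_iff_isRoot.2 h0
      exact hS.notMem (by
        have : π.1 = X - C 1 :=
          Polynomial.eq_of_monic_of_associated (hS.monic π.1 π.2) (Polynomial.monic_X_sub_C 1)
            ((Polynomial.irreducible_X_sub_C 1).associated_of_dvd (hS.irred π.1 π.2) hroot).symm
        rw [← this]
        exact π.2)
    rw [Matrix.eval_charpoly] at hev
    have hdet : ((g : Matrix (Fin i) (Fin i) F) - 1).det ≠ 0 := by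
      intro h0
      apply hev
      have : (Matrix.scalar (Fin i)) (1 : F) - (g : Matrix (Fin i) (Fin i) F) =
          -((g : Matrix (Fin i) (Fin i) F) - 1) := by
        simp
      rw [this, Matrix.det_neg, h0, mul_zero]
    exact (Matrix.isUnit_iff_isUnit_det _).2 (isUnit_iff_ne_zero.2 hdet)

theorem pkgDerOdd : PkgDerOdd.{u} := by
  intro F _ _ p _ _ hodd d r hr hr2 hrp hiodd hid
  classical
  have : Fact r.Prime := ⟨hr⟩
  have h2 : (2 : F) ≠ 0 := Cfsg.Agent.Lib.Helper44.two_ne_zero_of_odd_card hodd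
  have hrodd : Odd r := hr.odd_of_ne_two hr2
  have hipos0 : 0 < orderOf ((Fintype.card F : ℕ) : ZMod r) :=
    Cfsg.Agent.Lib.Helper40.Elusive.orderOf_pos_of_ne (F := F) (p := p) rfl r hrp
  generalize hi : orderOf ((Fintype.card F : ℕ) : ZMod r) = i at hiodd hid hipos0
  have hipos : 0 < i := hipos0
  obtain ⟨A, hAr, hAu⟩ := exists_fpf_block (F := F) (p := p) r hr hrp i hi.symm
  -- the `d × d` matrix `1 ⊕ A`
  let e : Fin (d - i) ⊕ Fin i ≃ Fin d := finSumFinEquiv.trans (finCongr (by omega))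
  let M₀ : Matrix (Fin (d - i) ⊕ Fin i) (Fin (d - i) ⊕ Fin i) F := Matrix.fromBlocks 1 0 0 A
  let A' : Matrix (Fin d) (Fin d) F := Matrix.reindexAlgEquiv F F e M₀
  have hM₀r : M₀ ^ r = 1 := by
    show (Matrix.fromBlocks 1 0 0 A) ^ r = 1
    rw [Cfsg.Agent.Lib.Helper40.fromBlocks_diag_pow, one_pow, hAr, Matrix.fromBlocks_one]
  have hA'r : A' ^ r = 1 := by
    show (Matrix.reindexAlgEquiv F F e M₀) ^ r = 1
    rw [← map_pow, hM₀r, map_one]
  have hA'rank : (A' - 1).rank = i := by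
    have h1 : A' - 1 = Matrix.reindex e e (Matrix.fromBlocks 0 0 0 (A - 1)) := by
      have h3 : M₀ - 1 = Matrix.fromBlocks 0 0 0 (A - 1) := by
        show Matrix.fromBlocks 1 0 0 A - 1 = _
        rw [← Matrix.fromBlocks_one, fromBlocks_sub']
        simp
      show Matrix.reindexAlgEquiv F F e M₀ - 1 = _
      rw [← h3]
      have h4 : (1 : Matrix (Fin d) (Fin d) F) = Matrix.reindexAlgEquiv F F e 1 := (map_one _).symm
      rw [h4, ← map_sub]
      rfl
    rw [h1, Matrix.rank_reindex, Cfsg.Agent.Lib.Helper40.rank_fromBlocks_zero_unit _ hAu,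
      Fintype.card_fin]
  have hA'u : IsUnit A' := IsUnit.of_pow_eq_one hA'r hr.ne_zero
  let g : GL (Fin d) F := hA'u.unit
  have hgval : (g : Matrix (Fin d) (Fin d) F) = A' := hA'u.unit_spec
  have hgr : g ^ r = 1 := by
    apply Units.ext
    rw [Units.val_pow_eq_pow_val, hgval, hA'r]
    rfl
  let x : GL (OI d) F := Cfsg.Agent.Lib.Helper20.OPar.phi d g
  have hxr : x ^ r = 1 := by
    show (Cfsg.Agent.Lib.Helper20.OPar.phi d g) ^ r = 1
    rw [← map_pow, hgr, map_one]
  have hxiso : x ∈ Cfsg.isometryGroup F (Cfsg.quadFormPlus d F) :=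
    Cfsg.Agent.Lib.Helper20.OPar.phi_mem d g
  have hxval : (x : Matrix (OI d) (OI d) F) = Matrix.fromBlocks A' 0 0
      ((g⁻¹ : GL (Fin d) F) : Matrix (Fin d) (Fin d) F)ᵀ := by
    rw [← hgval]
    exact Cfsg.Agent.Lib.Helper20.OPar.phi_val d g
  -- the rank of `x - 1`
  have hinv : ((g⁻¹ : GL (Fin d) F) : Matrix (Fin d) (Fin d) F) * A' = 1 := by
    rw [← hgval, ← Units.val_mul, inv_mul_cancel]
    rfl
  have hrank2 : (((g⁻¹ : GL (Fin d) F) : Matrix (Fin d) (Fin d) F)ᵀ - 1).rank = i := by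
    have h1 : ((g⁻¹ : GL (Fin d) F) : Matrix (Fin d) (Fin d) F)ᵀ - 1 =
        ((-((g⁻¹ : GL (Fin d) F) : Matrix (Fin d) (Fin d) F)) * (A' - 1))ᵀ := by
      rw [Matrix.neg_mul, Matrix.mul_sub, hinv, Matrix.mul_one, neg_sub, Matrix.transpose_sub,
        Matrix.transpose_one]
    rw [h1, Matrix.rank_transpose, Matrix.rank_mul_eq_right_of_isUnit_det _ _ ?_, hA'rank]
    rw [Matrix.det_neg]
    exact IsUnit.mul (IsUnit.pow _ isUnit_one.neg)
      ((Matrix.isUnit_iff_isUnit_det _).1 (g⁻¹).isUnit)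
  have hrank : ((x : Matrix (OI d) (OI d) F) - 1).rank = 2 * i := by
    have h1 : (x : Matrix (OI d) (OI d) F) - 1 = Matrix.fromBlocks (A' - 1) 0 0
        (((g⁻¹ : GL (Fin d) F) : Matrix (Fin d) (Fin d) F)ᵀ - 1) := by
      rw [hxval, ← Matrix.fromBlocks_one, fromBlocks_sub']
      simp
    rw [h1, rank_fromBlocks_diag, hA'rank, hrank2]
    ring
  refine ⟨x, Cfsg.Agent.Lib.Helper76.OFX.mem_omegaGL_plus_of_odd h2 d x hxiso r hrodd hxr, ?_,
    ?_, ?_⟩
  · rw [← Units.val_pow_eq_pow_val, hxr]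
    rfl
  · intro z hz
    have j0 : Fin d := ⟨0, by omega⟩
    -- the two diagonal blocks are `z • 1`
    have hb1 : A' = z • (1 : Matrix (Fin d) (Fin d) F) := by
      ext j k
      have h1 := congrFun (congrFun hz (Sum.inl j)) (Sum.inl k)
      rw [hxval, Matrix.fromBlocks_apply₁₁] at h1
      rw [h1]
      simp [Matrix.one_apply]
    have hb2 : ((g⁻¹ : GL (Fin d) F) : Matrix (Fin d) (Fin d) F) =
        z • (1 : Matrix (Fin d) (Fin d) F) := by
      ext j k
      have h1 := congrFun (congrFun hz (Sum.inr k)) (Sum.inr j)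
      rw [hxval, Matrix.fromBlocks_apply₂₂, Matrix.transpose_apply] at h1
      rw [h1]
      simp [Matrix.one_apply, eq_comm]
    have hz2 : z * z = 1 := by
      have h1 := hinv
      rw [hb1, hb2, Matrix.smul_mul, Matrix.mul_smul, Matrix.one_mul, smul_smul] at h1
      have h3 := congrFun (congrFun h1 j0) j0
      simpa using h3
    have hzr : z ^ r = 1 := by
      have h1 := hA'r
      rw [hb1, _root_.smul_pow, one_pow] at h1
      have h3 := congrFun (congrFun h1 j0) j0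
      simpa using h3
    have hz1 : z = 1 := by
      obtain ⟨k, hk⟩ := hrodd
      rw [hk, pow_succ, pow_mul, pow_two, hz2, one_pow, one_mul] at hzr
      exact hzr
    have h0 : ((x : Matrix (OI d) (OI d) F) - 1).rank = 0 := by
      rw [hz, hz1, one_smul, sub_self, Matrix.rank_zero]
    omega
  · rw [hrank]
    obtain ⟨k, hk⟩ := hiodd
    intro h4
    obtain ⟨c, hc⟩ := h4
    omega

end Cfsg.Agent.Lib.Helper73.OFX
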